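import Cfsg.Agent.Lib.Helper14.Spec.Defs
import Cfsg.Agent.Lib.Helper40.SpExist

/-!
# SPEC (S2362), package [SPTORUS] (helper27)

A matrix of order exactly `q ^ d + 1` preserving a non-degenerate alternating form in dimension
`2 d`: multiplication by an element of order `q ^ d + 1` in the field with `q ^ (2 d)` elements;
invariant form `Tr (a * b ^ (q ^ d))`, made alternating by helper40's `exists_alt_invariant`.
-/

set_option autoImplicit false

namespace Cfsg.Agent.Lib.Helper27.Spec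

open Cfsg.Agent.Lib.Helper14.Spec Matrix Module

universe u

theorem pkgSpTorus : PkgSpTorus.{u} := by
  intro F _ _ d hd
  obtain ⟨p, hpchar⟩ := CharP.exists F
  have hpprime : Fact p.Prime := ⟨CharP.char_is_prime F p⟩
  have hnz : NeZero (2 * d) := ⟨by omega⟩
  obtain ⟨q, hq⟩ : ∃ q, q = Fintype.card F := ⟨_, rfl⟩
  have hq2 : 2 ≤ q := by rw [hq]; exact Fintype.one_lt_card
  have hNatq : Nat.card F = q := by rw [hq, Nat.card_eq_fintype_card]
  let L := FiniteField.Extension F p (2 * d)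
  have hfr : Module.finrank F L = 2 * d := FiniteField.finrank_extension F p (2 * d)
  have hcardL : Nat.card L = q ^ (2 * d) := by
    rw [← hNatq]; exact FiniteField.natCard_extension F p (2 * d)
  have ht2 : 2 ≤ q ^ d := by
    calc 2 ≤ q := hq2
      _ = q ^ 1 := (pow_one q).symm
      _ ≤ q ^ d := Nat.pow_le_pow_right (by omega) hd
  have hfactor : q ^ (2 * d) - 1 = (q ^ d - 1) * (q ^ d + 1) := by
    have h1 : q ^ (2 * d) = (q ^ d) ^ 2 := by rw [← pow_mul, mul_comm]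
    rw [h1]
    obtain ⟨s, hs⟩ : ∃ s, q ^ d = s + 1 := ⟨q ^ d - 1, by omega⟩
    rw [hs]
    have : (s + 1) ^ 2 = s * (s + 1 + 1) + 1 := by ring
    rw [this]; simp
  let σ : L ≃ₐ[F] L := (FiniteField.Extension.frob F p (2 * d)) ^ d
  have hσ : ∀ x : L, σ x = x ^ (q ^ d) := by
    intro x; rw [← hNatq]; exact FiniteField.Extension.frob_iterate_apply F p (2 * d) d
  have hσσ : ∀ x : L, σ (σ x) = x := by
    intro x
    have hfin : Fintype L := Fintype.ofFinite L
    rw [hσ, hσ, ← pow_mul, ← pow_two, ← pow_mul, mul_comm d 2, ← hcardL,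
      Nat.card_eq_fintype_card]
    exact FiniteField.pow_card x
  obtain ⟨γ, hγ⟩ := IsCyclic.exists_generator (α := Lˣ)
  have hoγ : orderOf γ = q ^ (2 * d) - 1 := by
    rw [orderOf_eq_card_of_forall_mem_zpowers hγ, Nat.card_units, hcardL]
  obtain ⟨ζ, hζdef⟩ : ∃ ζ : Lˣ, ζ = γ ^ (q ^ d - 1) := ⟨_, rfl⟩
  have hoζ : orderOf ζ = q ^ d + 1 := by
    rw [hζdef, orderOf_pow_of_dvd (by omega) (by rw [hoγ, hfactor]; exact dvd_mul_right _ _),
      hoγ, hfactor]
    exact Nat.mul_div_cancel_left _ (by omega)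
  have hζσ : (ζ : L) * σ (ζ : L) = 1 := by
    rw [hσ, ← pow_succ', ← Units.val_pow_eq_pow_val, ← hoζ, pow_orderOf_eq_one, Units.val_one]
  let b : Basis (Fin (2 * d)) F L := Module.finBasisOfFinrankEq F L hfr
  obtain ⟨M, hM⟩ : ∃ M : Matrix (Fin (2 * d)) (Fin (2 * d)) F,
      M = Algebra.leftMulMatrix b (ζ : L) := ⟨_, rfl⟩
  obtain ⟨M', hM'⟩ : ∃ M' : Matrix (Fin (2 * d)) (Fin (2 * d)) F,
      M' = Algebra.leftMulMatrix b ((ζ⁻¹ : Lˣ) : L) := ⟨_, rfl⟩
  have hMM' : M * M' = 1 := by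
    rw [hM, hM', ← map_mul, ← Units.val_mul, mul_inv_cancel, Units.val_one, map_one]
  have hne : (ζ : L) - ((ζ⁻¹ : Lˣ) : L) ≠ 0 := by
    intro h
    have h1 : (ζ : L) = ((ζ⁻¹ : Lˣ) : L) := sub_eq_zero.1 h
    have h2 : ζ = ζ⁻¹ := Units.ext h1
    have h3 : ζ ^ 2 = 1 := by
      rw [pow_two]; nth_rewrite 2 [h2]; exact mul_inv_cancel ζ
    have h4 := orderOf_dvd_of_pow_eq_one h3
    rw [hoζ] at h4
    have := Nat.le_of_dvd (by norm_num) h4
    omega
  obtain ⟨δ, hδ⟩ : ∃ δ : Matrix (Fin (2 * d)) (Fin (2 * d)) F,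
      δ = Algebra.leftMulMatrix b (((ζ : L) - ((ζ⁻¹ : Lˣ) : L))⁻¹) := ⟨_, rfl⟩
  have hδ1 : (M - M') * δ = 1 := by
    rw [hM, hM', hδ, ← map_sub, ← map_mul, mul_inv_cancel₀ hne, map_one]
  let Bf : LinearMap.BilinForm F L := (Algebra.traceForm F L).compRight σ.toLinearMap
  obtain ⟨x, hx⟩ : ∃ x : Matrix (Fin (2 * d)) (Fin (2 * d)) F, x = LinearMap.BilinForm.toMatrix b Bf :=
    ⟨_, rfl⟩
  obtain ⟨T, hT⟩ : ∃ T : Matrix (Fin (2 * d)) (Fin (2 * d)) F,
      T = LinearMap.BilinForm.toMatrix b (Algebra.traceForm F L) := ⟨_, rfl⟩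
  have hxT : x = T * LinearMap.toMatrix b b σ.toLinearMap := by
    rw [hx, hT]; exact LinearMap.BilinForm.toMatrix_compRight b _ _
  have hS : LinearMap.toMatrix b b σ.toLinearMap * LinearMap.toMatrix b b σ.toLinearMap = 1 := by
    rw [← LinearMap.toMatrix_mul]
    have h1 : σ.toLinearMap * σ.toLinearMap = (1 : L →ₗ[F] L) := by
      ext y; exact hσσ y
    rw [h1, LinearMap.toMatrix_one]
  have hdet : T.det ≠ 0 := by rw [hT]; exact det_traceForm_ne_zero b
  have hxx' : x * (LinearMap.toMatrix b b σ.toLinearMap * T⁻¹) = 1 := by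
    rw [hxT, Matrix.mul_assoc, ← Matrix.mul_assoc (LinearMap.toMatrix b b σ.toLinearMap), hS,
      Matrix.one_mul, Matrix.mul_nonsing_inv _ (isUnit_iff_ne_zero.2 hdet)]
  have hinv : Mᵀ * x * M = x := by
    have h1 := LinearMap.BilinForm.toMatrix_comp b b Bf (LinearMap.mulLeft F (ζ : L))
      (LinearMap.mulLeft F (ζ : L))
    rw [Algebra.toMatrix_lmul_eq] at h1
    rw [hx, hM, ← h1]
    congr 1
    ext a c
    show Algebra.trace F L ((ζ : L) * a * σ ((ζ : L) * c)) = Algebra.trace F L (a * σ c)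
    have e : σ ((ζ : L) * c) = σ (ζ : L) * σ c := map_mul σ _ _
    have e2 : (ζ : L) * a * σ ((ζ : L) * c) = a * σ c := by
      rw [e]
      calc (ζ : L) * a * (σ (ζ : L) * σ c) = ((ζ : L) * σ (ζ : L)) * (a * σ c) := by ring
        _ = a * σ c := by rw [hζσ, one_mul]
    rw [e2]
  obtain ⟨y, y', hyy', halt, hyinv⟩ :=
    Cfsg.Agent.Lib.Helper40.SpExist.exists_alt_invariant M M' x _ δ hMM' hxx' hinv hδ1
  refine ⟨Fin (2 * d), inferInstance, inferInstance, M, y, y', by simp, hyy', halt, hyinv, ?_⟩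
  intro k
  rw [hM, ← map_pow, ← map_one (Algebra.leftMulMatrix b),
    (Algebra.leftMulMatrix_injective b).eq_iff, ← Units.val_pow_eq_pow_val, Units.val_eq_one,
    ← orderOf_dvd_iff_pow_eq_one, hoζ, hq]

end Cfsg.Agent.Lib.Helper27.Spec
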